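/-
The representation of degree two of a group of order dividing `18` which maps onto `S₃`; and the structure of the
commutator subgroup of a group acting on a set with two blocks of size three.
-/
import Cfsg.Agent.Lib.Polar.Rep

set_option autoImplicit false
set_option linter.unusedSectionVars false
set_option linter.unusedVariables false
set_option linter.style.haveILetI false

namespace Cfsg.Agent.Lib.Polar.PlusTwo

universe u

open Equiv
open scoped Pointwise

/-- **The character of degree two.** -/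
theorem s3_char {G : Type u} [Group G] [Finite G] (ρ : G →* Perm (Fin 3)) (hρ : Function.Surjective ρ)
    (hcard : Nat.card G ∣ 18) :
    ∃ χ : G → ℂ, Cfsg.IsIrrCharacter G χ ∧
      ∀ S : Sylow 2 G, χ 1 = Nat.card S ∧ ∀ x : G, x ∈ S → x ≠ 1 → χ x = 0 := by
  classical
  haveI : Fact (Nat.Prime 2) := ⟨Nat.prime_two⟩
  have hker : Nat.card ρ.ker * 6 = Nat.card G := by
    have h1 := Subgroup.card_mul_index ρ.ker
    rw [Subgroup.index_ker] at h1
    have h2 : Nat.card ρ.range = 6 := by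
      rw [MonoidHom.range_eq_top.mpr hρ, Subgroup.card_top, Nat.card_eq_fintype_card, Fintype.card_perm]
      rfl
    rwa [h2] at h1
  have hkerd : Nat.card ρ.ker ∣ 3 := by
    have : Nat.card ρ.ker * 6 ∣ 3 * 6 := by
      rw [hker]
      exact hcard
    exact Nat.dvd_of_mul_dvd_mul_right (by norm_num) this
  have hkerodd : ¬ 2 ∣ Nat.card ρ.ker := fun h => by
    have := dvd_trans h hkerd
    omega
  -- the order of a Sylow subgroup
  have hGne : Nat.card G ≠ 0 := Nat.card_pos.ne'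
  have hS2 : ∀ S : Sylow 2 G, Nat.card S = 2 := by
    intro S
    rw [S.card_eq_multiplicity]
    have h3 : (Nat.card G).factorization 2 = 1 := by
      have h4 : Nat.card G = 2 * (3 * Nat.card ρ.ker) := by
        rw [← hker]
        ring
      rw [h4, Nat.factorization_mul (by norm_num) (by
        have : Nat.card ρ.ker ≠ 0 := Nat.card_pos.ne'
        omega)]
      have h5 : (3 * Nat.card ρ.ker).factorization 2 = 0 := by
        apply Nat.factorization_eq_zero_of_not_dvd
        intro h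
        have h6 : (2 : ℕ) ∣ 3 * Nat.card ρ.ker := h
        rcases (Nat.Prime.dvd_mul Nat.prime_two).mp h6 with h7 | h7
        · omega
        · exact hkerodd h7
      rw [Nat.Prime.factorization Nat.prime_two]
      show _ + (3 * Nat.card ρ.ker).factorization 2 = 1
      rw [h5]
      simp
    rw [h3]
    rfl
  letI : MulAction G (Fin 3) := MulAction.compHom _ ρ
  have hsmul : ∀ (g : G) (t : Fin 3), g • t = ρ g t := fun _ _ => rfl
  obtain ⟨S₀⟩ : Nonempty (Sylow 2 G) := inferInstance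
  have hS₀ := hS2 S₀
  -- the generator
  obtain ⟨s, hs, hs1, hsall⟩ : ∃ s ∈ S₀, s ≠ 1 ∧ ∀ y ∈ S₀, y = 1 ∨ y = s := by
    haveI : Finite S₀ := inferInstance
    have h1 : 1 < Nat.card S₀ := by omega
    haveI : Nontrivial S₀ := (Finite.one_lt_card_iff_nontrivial).mp h1
    obtain ⟨⟨s, hs⟩, hs1⟩ := exists_ne (1 : S₀)
    have hs1' : s ≠ 1 := fun h => hs1 (Subtype.ext h)
    refine ⟨s, hs, hs1', ?_⟩
    intro y hy
    obtain ⟨a, b, hab, hall⟩ := Nat.card_eq_two_iff.mp hS₀
    have e1 : ∀ z : S₀, z = a ∨ z = b := fun z => by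
      have := Set.mem_univ z
      rw [← hall] at this
      simpa using this
    by_cases hy1 : y = 1
    · exact Or.inl hy1
    · right
      have h3 : ∀ z w : S₀, z ≠ 1 → w ≠ 1 → z = w := by
        intro z w hz hw
        rcases e1 1 with h | h <;> rcases e1 z with h' | h' <;> rcases e1 w with h'' | h'' <;> simp_all
      have := h3 ⟨y, hy⟩ ⟨s, hs⟩ (fun h => hy1 (congrArg Subtype.val h)) hs1
      exact congrArg Subtype.val this
  have hss : s * s = 1 := by
    have h1 : (⟨s, hs⟩ : S₀) ^ 2 = 1 := by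
      have h0 := pow_card_eq_one' (x := (⟨s, hs⟩ : S₀))
      convert h0 using 2
      exact hS₀.symm
    have h2 := congrArg Subtype.val h1
    simpa [pow_two] using h2
  have hρs : ρ s ≠ 1 := by
    intro h
    have h1 : s ∈ ρ.ker := h
    have h2 : orderOf (⟨s, h1⟩ : ρ.ker) = 2 := by
      apply orderOf_eq_prime
      · apply Subtype.ext
        simpa [pow_two] using hss
      · intro h3
        exact hs1 (congrArg Subtype.val h3)
    have h3 := orderOf_dvd_natCard (⟨s, h1⟩ : ρ.ker)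
    rw [h2] at h3
    exact hkerodd h3
  have hρss : ρ s * ρ s = 1 := by
    rw [← map_mul, hss, map_one]
  have hperm : ∀ σ : Perm (Fin 3), σ ≠ 1 → σ * σ = 1 → ∃ t₀ t₁ t₂ : Fin 3, t₀ ≠ t₁ ∧ t₀ ≠ t₂ ∧ t₁ ≠ t₂ ∧
      σ t₀ = t₀ ∧ σ t₁ = t₂ ∧ σ t₂ = t₁ := by
    decide
  obtain ⟨t₀, t₁, t₂, h01, h02, h12, hf0, hf1, hf2⟩ := hperm _ hρs hρss
  have huniv : (Finset.univ : Finset (Fin 3)) = {t₀, t₁, t₂} := by
    have h3 : ∀ t₀ t₁ t₂ : Fin 3, t₀ ≠ t₁ → t₀ ≠ t₂ → t₁ ≠ t₂ → (Finset.univ : Finset (Fin 3)) = {t₀, t₁, t₂} := by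
      decide
    exact h3 _ _ _ h01 h02 h12
  have hsum : ∀ f : Fin 3 → ℂ, ∑ t, f t = f t₀ + f t₁ + f t₂ := by
    intro f
    rw [huniv, Finset.sum_insert (by simp [h01, h02]), Finset.sum_insert (by simp [h12]), Finset.sum_singleton]
    ring
  -- the space of functions of sum zero
  let C : Submodule ℂ (Fin 3 → ℂ) := LinearMap.ker (∑ t : Fin 3, LinearMap.proj t)
  have hmemC : ∀ f, f ∈ C ↔ f t₀ + f t₁ + f t₂ = 0 := by
    intro f
    rw [LinearMap.mem_ker, ← hsum]
    simp
  have hC : ∀ g : G, ∀ f ∈ C, Rep.act g f ∈ C := by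
    intro g f hf
    rw [LinearMap.mem_ker] at hf ⊢
    simp only [LinearMap.coe_sum, Finset.sum_apply, LinearMap.proj_apply, Rep.act_apply] at hf ⊢
    rw [← hf]
    exact Equiv.sum_comp (MulAction.toPerm g⁻¹) f
  have hmemS : ∀ y ∈ S₀, y = 1 ∨ y = s := hsall
  obtain ⟨χ, hχ, hχ1, hχ2⟩ := Rep.main (G := G) (Ω := Fin 3) C hC S₀ {t₁, t₂} t₁ (by simp)
    (by
      intro u hu c hc
      rcases hsall u hu with rfl | rfl
      · simpa using hc
      · rcases hc with rfl | hc
        · right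
          rw [hsmul, hf1]
          rfl
        · have : c = t₂ := hc
          subst this
          left
          rw [hsmul, hf2])
    (by
      intro c hc
      rcases hc with rfl | hc
      · exact ⟨1, S₀.one_mem, by simp⟩
      · have : c = t₂ := hc
        subst this
        exact ⟨s, hs, by rw [hsmul, hf1]⟩)
    (by
      intro u hu h
      rcases hsall u hu with rfl | rfl
      · rfl
      · exfalso
        rw [hsmul, hf1] at h
        exact h12 h.symm)
    (by
      intro f hf h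
      rw [hmemC] at hf
      have h1 := h t₁ (by simp)
      have h2 := h t₂ (by simp)
      rw [h1, h2, add_zero, add_zero] at hf
      funext t
      have : t ∈ (Finset.univ : Finset (Fin 3)) := Finset.mem_univ t
      rw [huniv] at this
      simp only [Finset.mem_insert, Finset.mem_singleton] at this
      rcases this with rfl | rfl | rfl
      · exact hf
      · exact h1
      · exact h2)
    (fun t => if t = t₁ then 1 else if t = t₀ then -1 else 0)
    (by
      rw [hmemC]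
      simp [h01, h01.symm, h02, h02.symm, h12, h12.symm])
    (by simp)
    (by
      intro c hc hne
      rcases hc with rfl | hc
      · exact absurd rfl hne
      · have : c = t₂ := hc
        subst this
        simp [h12.symm, h02.symm])
    (by
      intro c
      obtain ⟨g, hg⟩ : ∃ g : G, ρ g t₀ = c := by
        obtain ⟨g, hg⟩ := hρ (Equiv.swap t₀ c)
        refine ⟨g, ?_⟩
        rw [hg]
        simp
      refine ⟨g, fun u hu => ?_⟩
      rcases hsall u hu with rfl | hus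
      · simp
      · rw [← hg, hus]
        show ρ (g * s * g⁻¹) (ρ g t₀) = ρ g t₀
        have h3 : (ρ g)⁻¹ (ρ g t₀) = t₀ := by simp
        simp only [map_mul, map_inv, Perm.mul_apply, h3, hf0])
  refine ⟨χ, hχ, ?_⟩
  obtain ⟨n, ρ₀, _, hρ₀⟩ := hχ
  have hconj : ∀ g h : G, χ (h * g * h⁻¹) = χ g := by
    intro g h
    rw [← hρ₀]
    exact Representation.char_conj ρ₀ g h
  intro S
  obtain ⟨g, rfl⟩ := MulAction.exists_smul_eq G S₀ S
  refine ⟨?_, ?_⟩
  · rw [hχ1]
    exact_mod_cast (Nat.card_congr (S₀.equivSMul g).toEquiv)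
  · intro x hx hx1
    have h1 : x ∈ (MulAut.conj g • (S₀ : Subgroup G)) := hx
    obtain ⟨y, hy, rfl⟩ := Subgroup.mem_smul_pointwise_iff_exists _ _ _ |>.mp h1
    have h2 : MulAut.conj g • y = g * y * g⁻¹ := rfl
    rw [h2, hconj]
    apply hχ2 y hy
    rintro rfl
    apply hx1
    rw [h2]
    simp

section blocks

open scoped commutatorElement

variable {O X : Type*} [Group O] [MulAction O X] [Fintype X] [DecidableEq X] (p : X → Prop) [DecidablePred p]

lemma comm_le_ker {G A : Type*} [Group G] [CommGroup A] (f : G →* A) : commutator G ≤ f.ker := by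
  rw [commutator_eq_closure, Subgroup.closure_le]
  rintro _ ⟨a, b, rfl⟩
  rw [SetLike.mem_coe, MonoidHom.mem_ker, commutatorElement_def, map_mul, map_mul, map_mul, map_inv, map_inv,
    mul_comm (f a), mul_assoc, mul_assoc, mul_inv_cancel_left, mul_inv_cancel]

variable {p}

set_option maxRecDepth 100000 in
lemma S3_comm : ∀ r₁ r₂ : Perm (Fin 3), r₁ ≠ 1 → r₁ * r₁ = 1 → r₂ ≠ 1 → r₂ * r₂ = 1 → r₁ ≠ r₂ →
    ⁅r₁, r₂⁆ ≠ 1 ∧ ⁅r₁, r₂⁆ ^ 3 = 1 := by
  decide

theorem blocks_main (hA : Fintype.card {x // p x} = 3) (hB : Fintype.card {x // ¬ p x} = 3)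
    (hdich : ∀ g : O, (∀ x, p (g • x) ↔ p x) ∨ (∀ x, p (g • x) ↔ ¬ p x))
    (hfaith : ∀ g : O, (∀ x : X, g • x = x) → g = 1)
    (t₁ t₂ s : O) (ht₁ : ∀ x, p (t₁ • x) ↔ p x) (ht₂ : ∀ x, p (t₂ • x) ↔ p x) (hs : ∀ x, p (s • x) ↔ ¬ p x)
    (ht₁₁ : t₁ * t₁ = 1) (ht₂₂ : t₂ * t₂ = 1) (hfixB : ∀ x, ¬ p x → t₁ • x = x)
    (a₁ a₂ : X) (ha₁ : p a₁) (ha₂ : p a₂) (h1 : t₁ • a₁ = a₁) (h2 : t₂ • a₁ ≠ a₁) (h3 : t₁ • a₂ ≠ a₂) :
    ∃ ρ : commutator O →* Perm (Fin 3), Function.Surjective ρ ∧ Nat.card (commutator O) ∣ 18 := by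
  classical
  -- the block homomorphism
  have hexcl : ∀ g : O, (∀ x, p (g • x) ↔ p x) → (∀ x, p (g • x) ↔ ¬ p x) → False := by
    intro g h₁ h₂
    have := (h₁ a₁).symm.trans (h₂ a₁)
    exact (iff_not_self this)
  let ε : O →* ℤˣ := MonoidHom.mk' (fun g => if ∀ x, p (g • x) ↔ p x then 1 else -1) (by
    intro a b
    rcases hdich a with ha | ha <;> rcases hdich b with hb | hb
    · have hab : ∀ x, p ((a * b) • x) ↔ p x := fun x => by rw [mul_smul, ha, hb]
      rw [if_pos hab, if_pos ha, if_pos hb]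
      rfl
    · have hab : ¬ ∀ x, p ((a * b) • x) ↔ p x := fun h =>
        hexcl (a * b) h (fun x => by rw [mul_smul, ha, hb])
      rw [if_neg hab, if_pos ha, if_neg (fun h => hexcl b h hb)]
      rfl
    · have hab : ¬ ∀ x, p ((a * b) • x) ↔ p x := fun h =>
        hexcl (a * b) h (fun x => by rw [mul_smul, ha, hb])
      rw [if_neg hab, if_neg (fun h => hexcl a h ha), if_pos hb]
      rfl
    · have hab : ∀ x, p ((a * b) • x) ↔ p x := fun x => by rw [mul_smul, ha, hb, not_not]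
      rw [if_pos hab, if_neg (fun h => hexcl a h ha), if_neg (fun h => hexcl b h hb)]
      rfl)
  have hεk : ∀ g : O, g ∈ ε.ker ↔ ∀ x, p (g • x) ↔ p x := by
    intro g
    rw [MonoidHom.mem_ker]
    show (if ∀ x, p (g • x) ↔ p x then (1 : ℤˣ) else -1) = 1 ↔ _
    by_cases h : ∀ x, p (g • x) ↔ p x
    · simp [h]
    · rw [if_neg h]
      simp only [h, iff_false]
      decide
  have hle : commutator O ≤ ε.ker := comm_le_ker ε
  -- the two actions
  let ρA : ε.ker →* Perm {x // p x} :=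
    { toFun := fun g => (MulAction.toPerm (g : O)).subtypePerm (fun x => (hεk _).mp g.2 x)
      map_one' := by
        ext x
        simp
      map_mul' := fun a b => by
        ext x
        show ((a : O) * (b : O)) • (x : X) = (a : O) • (b : O) • (x : X)
        rw [mul_smul] }
  let ρB : ε.ker →* Perm {x // ¬ p x} :=
    { toFun := fun g => (MulAction.toPerm (g : O)).subtypePerm (fun x => not_congr ((hεk _).mp g.2 x))
      map_one' := by
        ext x
        simp
      map_mul' := fun a b => by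
        ext x
        show ((a : O) * (b : O)) • (x : X) = (a : O) • (b : O) • (x : X)
        rw [mul_smul] }
  have hρA : ∀ (g : ε.ker) (x : {x // p x}), ((ρA g x : {x // p x}) : X) = (g : O) • (x : X) := fun _ _ => rfl
  have hρB : ∀ (g : ε.ker) (x : {x // ¬ p x}), ((ρB g x : {x // ¬ p x}) : X) = (g : O) • (x : X) := fun _ _ => rfl
  have hcong : ∀ g : ε.ker, MulAction.toPerm (g : O) = (ρA g).subtypeCongr (ρB g) := by
    intro g
    ext1 x
    by_cases hx : p x
    · rw [Perm.subtypeCongr.left_apply _ _ hx]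
      rfl
    · rw [Perm.subtypeCongr.right_apply _ _ hx]
      rfl
  let incl : commutator O →* ε.ker := Subgroup.inclusion hle
  have hincl : ∀ g : commutator O, ((incl g : ε.ker) : O) = g := fun _ => rfl
  let f : commutator O →* Perm {x // p x} × Perm {x // ¬ p x} := (ρA.comp incl).prod (ρB.comp incl)
  have hfinj : Function.Injective f := by
    rw [injective_iff_map_eq_one]
    intro g hg
    have hg1 : ρA (incl g) = 1 := congrArg Prod.fst hg
    have hg2 : ρB (incl g) = 1 := congrArg Prod.snd hg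
    apply Subtype.ext
    apply hfaith
    intro x
    by_cases hx : p x
    · have := congrArg (fun σ : Perm {x // p x} => ((σ ⟨x, hx⟩ : {x // p x}) : X)) hg1
      exact this
    · have := congrArg (fun σ : Perm {x // ¬ p x} => ((σ ⟨x, hx⟩ : {x // ¬ p x}) : X)) hg2
      exact this
  let h : Perm {x // p x} × Perm {x // ¬ p x} →* ℤˣ := MonoidHom.coprod Perm.sign Perm.sign
  have hrange : f.range ≤ h.ker := by
    rintro _ ⟨g, rfl⟩
    rw [MonoidHom.mem_ker]
    show Perm.sign (ρA (incl g)) * Perm.sign (ρB (incl g)) = 1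
    rw [← Perm.sign_subtypeCongr, ← hcong]
    have h4 := comm_le_ker (Perm.sign.comp (MulAction.toPermHom O X)) g.2
    exact h4
  haveI : Nontrivial {x // p x} := by
    rw [← Fintype.one_lt_card_iff_nontrivial, hA]
    norm_num
  have hcardE : Nat.card h.ker = 18 := by
    have h5 := Subgroup.card_mul_index h.ker
    rw [Subgroup.index_ker] at h5
    have hsurj : Function.Surjective h := by
      intro u
      obtain ⟨σ, hσ⟩ := Perm.sign_surjective {x // p x} u
      refine ⟨(σ, 1), ?_⟩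
      show Perm.sign σ * Perm.sign (1 : Perm {x // ¬ p x}) = u
      rw [hσ]
      simp
    have h6 : Nat.card h.range = 2 := by
      rw [MonoidHom.range_eq_top.mpr hsurj, Subgroup.card_top, Nat.card_eq_fintype_card]
      rfl
    have h7 : Nat.card (Perm {x // p x} × Perm {x // ¬ p x}) = 36 := by
      rw [Nat.card_prod, Nat.card_eq_fintype_card, Nat.card_eq_fintype_card, Fintype.card_perm, Fintype.card_perm, hA, hB]
      rfl
    rw [h6, h7] at h5
    omega
  have hcard : Nat.card (commutator O) ∣ 18 := by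
    have h8 : Nat.card (commutator O) = Nat.card f.range := Nat.card_congr (MonoidHom.ofInjective hfinj).toEquiv
    rw [h8, ← hcardE]
    exact Subgroup.card_dvd_of_le hrange
  -- the map to the symmetric group
  let e : {x // p x} ≃ Fin 3 := Fintype.equivFinOfCardEq hA
  let ρ' : ε.ker →* Perm (Fin 3) := e.permCongrHom.toMonoidHom.comp ρA
  let ρ : commutator O →* Perm (Fin 3) := ρ'.comp incl
  refine ⟨ρ, ?_, hcard⟩
  -- the elements
  have ht₁k : t₁ ∈ ε.ker := (hεk _).mpr ht₁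
  have ht₂k : t₂ ∈ ε.ker := (hεk _).mpr ht₂
  obtain ⟨t₁', ht₁'⟩ : ∃ t₁' : ε.ker, t₁' = ⟨t₁, ht₁k⟩ := ⟨_, rfl⟩
  obtain ⟨t₂', ht₂'⟩ : ∃ t₂' : ε.ker, t₂' = ⟨t₂, ht₂k⟩ := ⟨_, rfl⟩
  have hv₁ : (t₁' : O) = t₁ := by rw [ht₁']
  have hv₂ : (t₂' : O) = t₂ := by rw [ht₂']
  have hinj' : ∀ σ τ : Perm {x // p x}, e.permCongrHom.toMonoidHom σ = e.permCongrHom.toMonoidHom τ → σ = τ :=
    fun σ τ h => e.permCongrHom.injective h
  have hr₁₁ : ρ' t₁' * ρ' t₁' = 1 := by
    rw [← map_mul]
    have : t₁' * t₁' = 1 := Subtype.ext (by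
      show (t₁' : O) * (t₁' : O) = 1
      rw [hv₁, ht₁₁])
    rw [this, map_one]
  have hr₂₂ : ρ' t₂' * ρ' t₂' = 1 := by
    rw [← map_mul]
    have : t₂' * t₂' = 1 := Subtype.ext (by
      show (t₂' : O) * (t₂' : O) = 1
      rw [hv₂, ht₂₂])
    rw [this, map_one]
  have hr₁ : ρ' t₁' ≠ 1 := by
    intro h
    have h4 : ρA t₁' = 1 := hinj' _ _ (by rw [map_one]; exact h)
    have h5 := congrArg (fun σ : Perm {x // p x} => ((σ ⟨a₂, ha₂⟩ : {x // p x}) : X)) h4
    apply h3
    rw [← hv₁]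
    exact h5
  have hr₂ : ρ' t₂' ≠ 1 := by
    intro h
    have h4 : ρA t₂' = 1 := hinj' _ _ (by rw [map_one]; exact h)
    have h5 := congrArg (fun σ : Perm {x // p x} => ((σ ⟨a₁, ha₁⟩ : {x // p x}) : X)) h4
    apply h2
    rw [← hv₂]
    exact h5
  have hr₁₂ : ρ' t₁' ≠ ρ' t₂' := by
    intro h
    have h4 : ρA t₁' = ρA t₂' := hinj' _ _ h
    have h5 := congrArg (fun σ : Perm {x // p x} => ((σ ⟨a₁, ha₁⟩ : {x // p x}) : X)) h4
    apply h2
    have h6 : (t₁' : O) • a₁ = (t₂' : O) • a₁ := h5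
    rw [hv₁, hv₂, h1] at h6
    exact h6.symm
  obtain ⟨hc1, hc3⟩ := S3_comm _ _ hr₁ hr₁₁ hr₂ hr₂₂ hr₁₂
  -- the commutator of the two reflections
  have hcm : ⁅t₁, t₂⁆ ∈ commutator O := Subgroup.commutator_mem_commutator (Subgroup.mem_top _) (Subgroup.mem_top _)
  have hcρ : ρ ⟨⁅t₁, t₂⁆, hcm⟩ = ⁅ρ' t₁', ρ' t₂'⁆ := by
    rw [← map_commutatorElement]
    show ρ' (incl ⟨⁅t₁, t₂⁆, hcm⟩) = _
    congr 1
    apply Subtype.ext
    show ⁅t₁, t₂⁆ = ⁅(t₁' : O), (t₂' : O)⁆
    rw [hv₁, hv₂]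
  -- the commutator with the swap
  have hwm : ⁅s, t₁⁆ ∈ commutator O := Subgroup.commutator_mem_commutator (Subgroup.mem_top _) (Subgroup.mem_top _)
  have hwρ : ρ ⟨⁅s, t₁⁆, hwm⟩ = ρ' t₁' := by
    show e.permCongrHom.toMonoidHom (ρA (incl ⟨⁅s, t₁⁆, hwm⟩)) = e.permCongrHom.toMonoidHom (ρA t₁')
    congr 1
    ext x
    show ⁅s, t₁⁆ • (x : X) = (t₁' : O) • (x : X)
    rw [hv₁, commutatorElement_def, mul_smul, mul_smul, mul_smul]
    have hti : t₁⁻¹ = t₁ := inv_eq_of_mul_eq_one_left ht₁₁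
    rw [hti]
    obtain ⟨y, hy⟩ : ∃ y, y = t₁ • (x : X) := ⟨_, rfl⟩
    rw [← hy]
    have hpy : p y := by
      rw [hy, ht₁]
      exact x.2
    have h4 : ¬ p (s⁻¹ • y) := by
      have := hs (s⁻¹ • y)
      rw [smul_inv_smul] at this
      exact this.mp hpy
    rw [hfixB _ h4, smul_inv_smul]
  -- counting
  apply MonoidHom.range_eq_top.mp
  haveI : Fact (Nat.Prime 3) := ⟨Nat.prime_three⟩
  haveI : Fact (Nat.Prime 2) := ⟨Nat.prime_two⟩
  have h3d : 3 ∣ Nat.card ρ.range := by
    have h4 : orderOf (ρ ⟨⁅t₁, t₂⁆, hcm⟩) = 3 := by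
      apply orderOf_eq_prime
      · rw [hcρ]
        exact hc3
      · rw [hcρ]
        exact hc1
    have h5 := Subgroup.orderOf_dvd_natCard ρ.range (x := ρ ⟨⁅t₁, t₂⁆, hcm⟩) ⟨_, rfl⟩
    rwa [h4] at h5
  have h2d : 2 ∣ Nat.card ρ.range := by
    have h4 : orderOf (ρ ⟨⁅s, t₁⁆, hwm⟩) = 2 := by
      apply orderOf_eq_prime
      · rw [hwρ, pow_two]
        exact hr₁₁
      · rw [hwρ]
        exact hr₁
    have h5 := Subgroup.orderOf_dvd_natCard ρ.range (x := ρ ⟨⁅s, t₁⁆, hwm⟩) ⟨_, rfl⟩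
    rwa [h4] at h5
  have h6d : 6 ∣ Nat.card ρ.range := Nat.Coprime.mul_dvd_of_dvd_of_dvd (by norm_num) h2d h3d
  have hcardS : Nat.card (Perm (Fin 3)) = 6 := by
    rw [Nat.card_eq_fintype_card, Fintype.card_perm]
    rfl
  have hd6 : Nat.card ρ.range ∣ 6 := by
    rw [← hcardS]
    exact Subgroup.card_subgroup_dvd_card _
  apply Subgroup.eq_top_of_card_eq
  rw [hcardS]
  exact Nat.dvd_antisymm hd6 h6d

end blocks

end Cfsg.Agent.Lib.Polar.PlusTwo
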