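/-
The exceptional group `Ω⁺₄(2)`, of order `18`.
-/
import Cfsg.Agent.Lib.Polar.OrthFrame
import Cfsg.Agent.Lib.Polar.PlusTwoAbs

set_option autoImplicit false
set_option linter.unusedSectionVars false
set_option linter.unusedVariables false
set_option linter.style.haveILetI false

namespace Cfsg.Agent.Lib.Polar.PlusTwo

open Module Matrix Cfsg QuadraticMap
open Cfsg.Agent.Lib.Witt.Quadratic Cfsg.Agent.Lib.Orth.Refl Cfsg.Agent.Lib.Orth.Wall Cfsg.Agent.Lib.Orth.Gen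
  Cfsg.Agent.Lib.Orth.Spin Cfsg.Agent.Lib.Orth.Omega Cfsg.Agent.Lib.Orth.Bridge Cfsg.Agent.Lib.Orth.Forms
  Cfsg.Agent.Lib.Polar.Orth

set_option maxRecDepth 100000 in
lemma key_block : ∀ x₀ x₁ y₀ y₁ x₀' x₁' y₀' y₁' : ZMod 2, x₀ * y₀ + x₁ * y₁ = 1 → x₀' * y₀' + x₁' * y₁' = 1 →
    (x₀ * y₀' + x₀' * y₀ + (x₁ * y₁' + x₁' * y₁) = 1 ↔
      (¬ (x₀ = x₀' ∧ x₁ = x₁' ∧ y₀ = y₀' ∧ y₁ = y₁') ∧ ((y₀ = x₀ + x₁ ∧ y₁ = x₁) ↔ (y₀' = x₀' + x₁' ∧ y₁' = x₁')))) := by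
  decide

set_option maxRecDepth 100000 in
set_option synthInstance.maxSize 2000 in
set_option synthInstance.maxHeartbeats 400000 in
lemma key_A : ∀ x₀ x₁ y₀ y₁ : ZMod 2, x₀ * y₀ + x₁ * y₁ = 1 → (y₀ = x₀ + x₁ ∧ y₁ = x₁) →
    (x₀ = 1 ∧ x₁ = 0 ∧ y₀ = 1 ∧ y₁ = 0) ∨ (x₀ = 0 ∧ x₁ = 1 ∧ y₀ = 1 ∧ y₁ = 1) ∨ (x₀ = 1 ∧ x₁ = 1 ∧ y₀ = 0 ∧ y₁ = 1) := by
  decide

set_option maxRecDepth 100000 in
set_option synthInstance.maxSize 2000 in
set_option synthInstance.maxHeartbeats 400000 in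
lemma key_B : ∀ x₀ x₁ y₀ y₁ : ZMod 2, x₀ * y₀ + x₁ * y₁ = 1 → ¬ (y₀ = x₀ + x₁ ∧ y₁ = x₁) →
    (x₀ = 1 ∧ x₁ = 1 ∧ y₀ = 1 ∧ y₁ = 0) ∨ (x₀ = 1 ∧ x₁ = 0 ∧ y₀ = 1 ∧ y₁ = 1) ∨ (x₀ = 0 ∧ x₁ = 1 ∧ y₀ = 0 ∧ y₁ = 1) := by
  decide

set_option maxRecDepth 100000 in
lemma center_S3 : ∀ σ : Equiv.Perm (Fin 3), (∀ τ : Equiv.Perm (Fin 3), σ * τ = τ * σ) → σ = 1 := by
  decide

section

variable {F : Type*} [Field F]

/-- A vector from coordinates. -/
def mkV (x₀ x₁ y₀ y₁ : F) : Fin 2 ⊕ Fin 2 → F := Sum.elim ![x₀, x₁] ![y₀, y₁]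

@[simp] lemma mkV_00 (x₀ x₁ y₀ y₁ : F) : mkV x₀ x₁ y₀ y₁ (.inl 0) = x₀ := rfl
@[simp] lemma mkV_01 (x₀ x₁ y₀ y₁ : F) : mkV x₀ x₁ y₀ y₁ (.inl 1) = x₁ := rfl
@[simp] lemma mkV_10 (x₀ x₁ y₀ y₁ : F) : mkV x₀ x₁ y₀ y₁ (.inr 0) = y₀ := rfl
@[simp] lemma mkV_11 (x₀ x₁ y₀ y₁ : F) : mkV x₀ x₁ y₀ y₁ (.inr 1) = y₁ := rfl

lemma ext_V {u v : Fin 2 ⊕ Fin 2 → F} (h0 : u (.inl 0) = v (.inl 0)) (h1 : u (.inl 1) = v (.inl 1))
    (h2 : u (.inr 0) = v (.inr 0)) (h3 : u (.inr 1) = v (.inr 1)) : u = v := by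
  funext i
  rcases i with i | i <;> fin_cases i <;> assumption

lemma eq_mkV (v : Fin 2 ⊕ Fin 2 → F) : v = mkV (v (.inl 0)) (v (.inl 1)) (v (.inr 0)) (v (.inr 1)) :=
  ext_V rfl rfl rfl rfl

/-- The form in coordinates. -/
lemma Q_apply (v : Fin 2 ⊕ Fin 2 → F) :
    plusForm 2 F v = v (.inl 0) * v (.inr 0) + v (.inl 1) * v (.inr 1) := by
  show quadFormPlus 2 F v = _
  simp [quadFormPlus, Fin.sum_univ_two]

lemma polar_apply (u v : Fin 2 ⊕ Fin 2 → F) :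
    polar (plusForm 2 F) u v = u (.inl 0) * v (.inr 0) + v (.inl 0) * u (.inr 0) +
      (u (.inl 1) * v (.inr 1) + v (.inl 1) * u (.inr 1)) := by
  show polar (quadFormPlus 2 F) u v = _
  rw [polar_plus, Fin.sum_univ_two]

/-- The block predicate. -/
def blk (v : Fin 2 ⊕ Fin 2 → F) : Prop := v (.inr 0) = v (.inl 0) + v (.inl 1) ∧ v (.inr 1) = v (.inl 1)

variable [Fintype F] (hF : Fintype.card F = 2)

include hF

/-- The identification with the field with two elements. -/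
noncomputable def ψ : ZMod 2 ≃+* F := ZMod.ringEquivOfPrime F Nat.prime_two hF

lemma one_add_one : (1 : F) + 1 = 0 := by
  have h : (1 : ZMod 2) + 1 = 0 := by decide
  have h2 := congrArg (ψ hF) h
  simpa using h2

/-- The block lemma. -/
lemma block_F {u v : Fin 2 ⊕ Fin 2 → F} (hu : plusForm 2 F u = 1) (hv : plusForm 2 F v = 1) :
    polar (plusForm 2 F) u v = 1 ↔ (u ≠ v ∧ (blk u ↔ blk v)) := by
  have huv : u ≠ v ↔ ¬ (u (.inl 0) = v (.inl 0) ∧ u (.inl 1) = v (.inl 1) ∧ u (.inr 0) = v (.inr 0) ∧ u (.inr 1) = v (.inr 1)) := by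
    apply not_congr
    constructor
    · rintro rfl
      exact ⟨rfl, rfl, rfl, rfl⟩
    · rintro ⟨h0, h1, h2, h3⟩
      exact ext_V h0 h1 h2 h3
  rw [Q_apply] at hu hv
  rw [polar_apply, huv]
  unfold blk
  generalize u (.inl 0) = x₀ at *
  generalize u (.inl 1) = x₁ at *
  generalize u (.inr 0) = y₀ at *
  generalize u (.inr 1) = y₁ at *
  generalize v (.inl 0) = x₀' at *
  generalize v (.inl 1) = x₁' at *
  generalize v (.inr 0) = y₀' at *
  generalize v (.inr 1) = y₁' at *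
  obtain ⟨a, rfl⟩ := (ψ hF).surjective x₀
  obtain ⟨b, rfl⟩ := (ψ hF).surjective x₁
  obtain ⟨c, rfl⟩ := (ψ hF).surjective y₀
  obtain ⟨d, rfl⟩ := (ψ hF).surjective y₁
  obtain ⟨a', rfl⟩ := (ψ hF).surjective x₀'
  obtain ⟨b', rfl⟩ := (ψ hF).surjective x₁'
  obtain ⟨c', rfl⟩ := (ψ hF).surjective y₀'
  obtain ⟨d', rfl⟩ := (ψ hF).surjective y₁'
  simp only [← map_mul, ← map_add, ← map_one (ψ hF), (ψ hF).injective.eq_iff] at *
  exact key_block _ _ _ _ _ _ _ _ hu hv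

lemma class_A {v : Fin 2 ⊕ Fin 2 → F} (hv : plusForm 2 F v = 1) (hb : blk v) :
    v = mkV 1 0 1 0 ∨ v = mkV 0 1 1 1 ∨ v = mkV 1 1 0 1 := by
  have e : ∀ x₀ x₁ y₀ y₁ : F, v = mkV x₀ x₁ y₀ y₁ ↔ (v (.inl 0) = x₀ ∧ v (.inl 1) = x₁ ∧ v (.inr 0) = y₀ ∧ v (.inr 1) = y₁) := by
    intro x₀ x₁ y₀ y₁
    constructor
    · rintro rfl
      exact ⟨rfl, rfl, rfl, rfl⟩
    · rintro ⟨h0, h1, h2, h3⟩
      exact ext_V h0 h1 h2 h3
  rw [e, e, e]
  rw [Q_apply] at hv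
  unfold blk at hb
  generalize v (.inl 0) = x₀ at *
  generalize v (.inl 1) = x₁ at *
  generalize v (.inr 0) = y₀ at *
  generalize v (.inr 1) = y₁ at *
  obtain ⟨a, rfl⟩ := (ψ hF).surjective x₀
  obtain ⟨b, rfl⟩ := (ψ hF).surjective x₁
  obtain ⟨c, rfl⟩ := (ψ hF).surjective y₀
  obtain ⟨d, rfl⟩ := (ψ hF).surjective y₁
  simp only [← map_mul, ← map_add, ← map_one (ψ hF), ← map_zero (ψ hF), (ψ hF).injective.eq_iff] at *
  exact key_A _ _ _ _ hv hb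

lemma class_B {v : Fin 2 ⊕ Fin 2 → F} (hv : plusForm 2 F v = 1) (hb : ¬ blk v) :
    v = mkV 1 1 1 0 ∨ v = mkV 1 0 1 1 ∨ v = mkV 0 1 0 1 := by
  have e : ∀ x₀ x₁ y₀ y₁ : F, v = mkV x₀ x₁ y₀ y₁ ↔ (v (.inl 0) = x₀ ∧ v (.inl 1) = x₁ ∧ v (.inr 0) = y₀ ∧ v (.inr 1) = y₁) := by
    intro x₀ x₁ y₀ y₁
    constructor
    · rintro rfl
      exact ⟨rfl, rfl, rfl, rfl⟩
    · rintro ⟨h0, h1, h2, h3⟩
      exact ext_V h0 h1 h2 h3
  rw [e, e, e]
  rw [Q_apply] at hv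
  unfold blk at hb
  generalize v (.inl 0) = x₀ at *
  generalize v (.inl 1) = x₁ at *
  generalize v (.inr 0) = y₀ at *
  generalize v (.inr 1) = y₁ at *
  obtain ⟨a, rfl⟩ := (ψ hF).surjective x₀
  obtain ⟨b, rfl⟩ := (ψ hF).surjective x₁
  obtain ⟨c, rfl⟩ := (ψ hF).surjective y₀
  obtain ⟨d, rfl⟩ := (ψ hF).surjective y₁
  simp only [← map_mul, ← map_add, ← map_one (ψ hF), ← map_zero (ψ hF), (ψ hF).injective.eq_iff] at *
  exact key_B _ _ _ _ hv hb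

end

section

variable {F : Type*} [Field F]

/-- The nonsingular vectors. -/
abbrev XX (F : Type*) [Field F] := {v : Fin 2 ⊕ Fin 2 → F // plusForm 2 F v = 1}

noncomputable instance actXX : MulAction (isoGroup (plusForm 2 F)) (XX F) where
  smul g x := ⟨g.1 x.1, (g.2 x.1).trans x.2⟩
  one_smul x := Subtype.ext rfl
  mul_smul a b x := Subtype.ext rfl

@[simp] lemma smul_val (g : isoGroup (plusForm 2 F)) (x : XX F) : ((g • x : XX F) : Fin 2 ⊕ Fin 2 → F) = g.1 x.1 := rfl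

/-- The swap of the two hyperbolic planes. -/
noncomputable def swL : (Fin 2 ⊕ Fin 2 → F) ≃ₗ[F] (Fin 2 ⊕ Fin 2 → F) :=
  LinearEquiv.funCongrLeft F F (Equiv.sumCongr (Equiv.swap 0 1) (Equiv.swap 0 1))

lemma swL_apply (v : Fin 2 ⊕ Fin 2 → F) (i : Fin 2 ⊕ Fin 2) :
    swL v i = v (Equiv.sumCongr (Equiv.swap 0 1) (Equiv.swap 0 1) i) := rfl

lemma swL_mem : (swL : (Fin 2 ⊕ Fin 2 → F) ≃ₗ[F] (Fin 2 ⊕ Fin 2 → F)) ∈ isoGroup (plusForm 2 F) := by
  intro v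
  rw [Q_apply, Q_apply, swL_apply, swL_apply, swL_apply, swL_apply]
  simp only [Equiv.sumCongr_apply, Sum.map_inl, Sum.map_inr, Equiv.swap_apply_left, Equiv.swap_apply_right]
  ring

lemma card_three {α : Type*} [Fintype α] (a b c : α) (hab : a ≠ b) (hac : a ≠ c) (hbc : b ≠ c)
    (hall : ∀ x, x = a ∨ x = b ∨ x = c) : Fintype.card α = 3 := by
  classical
  have h : (Finset.univ : Finset α) = {a, b, c} := by
    ext x
    simpa using hall x
  rw [← Finset.card_univ, h, Finset.card_insert_of_notMem (by simp [hab, hac]), Finset.card_pair hbc]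

variable [Fintype F] (hF : Fintype.card F = 2)

include hF

lemma F01 (x : F) : x = 0 ∨ x = 1 := by
  obtain ⟨a, rfl⟩ := (ψ hF).surjective x
  have h : ∀ a : ZMod 2, a = 0 ∨ a = 1 := by decide
  rcases h a with rfl | rfl
  · left
    simp
  · right
    simp

lemma neg_eq_self (v : Fin 2 ⊕ Fin 2 → F) : - v = v := by
  funext i
  have h := one_add_one hF
  simp only [Pi.neg_apply]
  have e : v i + v i = ((1 : F) + 1) * v i := by ring
  rw [h, zero_mul] at e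
  exact neg_eq_of_add_eq_zero_left e

lemma hreflX (a x : XX F) :
    refl (plusForm 2 F) a.1 x.1 = x.1 - (polar (plusForm 2 F) x.1 a.1) • a.1 := by
  rw [refl_apply, a.2, inv_one, one_mul]

/-- A block structure. -/
lemma dich (g : isoGroup (plusForm 2 F)) :
    (∀ x : XX F, blk (g • x).1 ↔ blk x.1) ∨ (∀ x : XX F, blk (g • x).1 ↔ ¬ blk x.1) := by
  have hQ₁ : plusForm 2 F (mkV 1 0 1 0) = 1 := by
    rw [Q_apply]
    simp
  obtain ⟨a₀, ha₀⟩ : ∃ a₀ : XX F, a₀ = ⟨_, hQ₁⟩ := ⟨_, rfl⟩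
  have hb₀ : blk a₀.1 := by
    rw [ha₀]
    constructor <;> simp
  have key : ∀ x : XX F, x ≠ a₀ → (blk x.1 ↔ (blk (g • x).1 ↔ blk (g • a₀).1)) := by
    intro x hx
    have h1 := block_F hF x.2 a₀.2
    have h2 := block_F hF (g • x).2 (g • a₀).2
    have h3 : polar (plusForm 2 F) (g • x).1 (g • a₀).1 = polar (plusForm 2 F) x.1 a₀.1 :=
      polar_eq_of_preserves g.1 g.2 _ _
    have hne : x.1 ≠ a₀.1 := fun h => hx (Subtype.ext h)
    have hne' : (g • x).1 ≠ (g • a₀).1 := by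
      intro h
      exact hne (g.1.injective h)
    rw [h3] at h2
    rw [h1] at h2
    simp only [hne, hne', ne_eq, not_false_eq_true, true_and, hb₀, iff_true] at h2
    exact h2
  by_cases hg : blk (g • a₀).1
  · left
    intro x
    by_cases hx : x = a₀
    · subst hx
      exact iff_of_true hg hb₀
    · have := key x hx
      simp only [hg, iff_true] at this
      exact this.symm
  · right
    intro x
    by_cases hx : x = a₀
    · subst hx
      exact ⟨fun h => absurd h hg, fun h => absurd hb₀ h⟩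
    · have := key x hx
      simp only [hg, iff_false] at this
      rw [this, not_not]

lemma faithful (g : isoGroup (plusForm 2 F)) (h : ∀ x : XX F, g • x = x) : g = 1 := by
  have hfx : ∀ v, plusForm 2 F v = 1 → g.1 v = v := fun v hv => congrArg Subtype.val (h ⟨v, hv⟩)
  have hadd : ∀ u w, plusForm 2 F u = 1 → plusForm 2 F w = 1 → g.1 (u + w) = u + w := by
    intro u w hu hw
    rw [map_add, hfx u hu, hfx w hw]
  have h2 := one_add_one hF
  have hQs : ∀ x₀ x₁ y₀ y₁ : F, x₀ * y₀ + x₁ * y₁ = 1 → plusForm 2 F (mkV x₀ x₁ y₀ y₁) = 1 := by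
    intro x₀ x₁ y₀ y₁ h
    rw [Q_apply]
    simpa using h
  have e1 : g.1 (mkV 1 0 0 0) = mkV 1 0 0 0 := by
    have e : (mkV 1 0 0 0 : Fin 2 ⊕ Fin 2 → F) = mkV 1 1 0 1 + mkV 0 1 0 1 := by
      apply ext_V <;> simp [h2]
    rw [e]
    exact hadd _ _ (hQs _ _ _ _ (by simp)) (hQs _ _ _ _ (by simp))
  have e2 : g.1 (mkV 0 1 0 0) = mkV 0 1 0 0 := by
    have e : (mkV 0 1 0 0 : Fin 2 ⊕ Fin 2 → F) = mkV 1 0 1 0 + mkV 1 1 1 0 := by
      apply ext_V <;> simp [h2]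
    rw [e]
    exact hadd _ _ (hQs _ _ _ _ (by simp)) (hQs _ _ _ _ (by simp))
  have e3 : g.1 (mkV 0 0 1 0) = mkV 0 0 1 0 := by
    have e : (mkV 0 0 1 0 : Fin 2 ⊕ Fin 2 → F) = mkV 0 1 1 1 + mkV 0 1 0 1 := by
      apply ext_V <;> simp [h2]
    rw [e]
    exact hadd _ _ (hQs _ _ _ _ (by simp)) (hQs _ _ _ _ (by simp))
  have e4 : g.1 (mkV 0 0 0 1) = mkV 0 0 0 1 := by
    have e : (mkV 0 0 0 1 : Fin 2 ⊕ Fin 2 → F) = mkV 1 0 1 0 + mkV 1 0 1 1 := by
      apply ext_V <;> simp [h2]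
    rw [e]
    exact hadd _ _ (hQs _ _ _ _ (by simp)) (hQs _ _ _ _ (by simp))
  apply Subtype.ext
  apply LinearEquiv.ext
  intro v
  have ev : v = v (.inl 0) • mkV 1 0 0 0 + v (.inl 1) • mkV 0 1 0 0 + v (.inr 0) • mkV 0 0 1 0 + v (.inr 1) • mkV 0 0 0 1 := by
    apply ext_V <;> simp
  show g.1 v = v
  rw [ev]
  simp only [map_add, map_smul, e1, e2, e3, e4]

/-- The structure of the commutator subgroup. -/
theorem structure_main : ∃ ρ : commutator (isoGroup (plusForm 2 F)) →* Equiv.Perm (Fin 3), Function.Surjective ρ ∧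
    Nat.card (commutator (isoGroup (plusForm 2 F))) ∣ 18 := by
  classical
  haveI : Fintype (XX F) := Fintype.ofFinite _
  have h2 := one_add_one hF
  have hQs : ∀ x₀ x₁ y₀ y₁ : F, x₀ * y₀ + x₁ * y₁ = 1 → plusForm 2 F (mkV x₀ x₁ y₀ y₁) = 1 := by
    intro x₀ x₁ y₀ y₁ h
    rw [Q_apply]
    simpa using h
  have h10 : (1 : F) ≠ 0 := one_ne_zero
  have h01 : (0 : F) ≠ 1 := zero_ne_one
  -- the vectors
  let a₁ : XX F := ⟨mkV 1 0 1 0, hQs _ _ _ _ (by simp)⟩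
  let a₂ : XX F := ⟨mkV 0 1 1 1, hQs _ _ _ _ (by simp)⟩
  let a₃ : XX F := ⟨mkV 1 1 0 1, hQs _ _ _ _ (by simp)⟩
  let b₁ : XX F := ⟨mkV 1 1 1 0, hQs _ _ _ _ (by simp)⟩
  let b₂ : XX F := ⟨mkV 1 0 1 1, hQs _ _ _ _ (by simp)⟩
  let b₃ : XX F := ⟨mkV 0 1 0 1, hQs _ _ _ _ (by simp)⟩
  have ha₁ : blk a₁.1 := by
    constructor <;> simp [a₁]
  have ha₂ : blk a₂.1 := by
    constructor <;> simp [a₂]
  have ha₃ : blk a₃.1 := by
    constructor <;> simp [a₃, h2]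
  have hb₁ : ¬ blk b₁.1 := by
    rintro ⟨h, _⟩
    simp [b₁, h2] at h
  have hb₂ : ¬ blk b₂.1 := by
    rintro ⟨_, h⟩
    simp [b₂] at h
  have hb₃ : ¬ blk b₃.1 := by
    rintro ⟨h, _⟩
    simp [b₃] at h
  let p : XX F → Prop := fun x => blk x.1
  have hA : Fintype.card {x // p x} = 3 := by
    apply card_three (⟨a₁, ha₁⟩ : {x // p x}) ⟨a₂, ha₂⟩ ⟨a₃, ha₃⟩
    · intro h
      have h3 := congrArg (fun z : {x // p x} => z.1.1 (.inl 0)) h
      simp [a₁, a₂] at h3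
    · intro h
      have h3 := congrArg (fun z : {x // p x} => z.1.1 (.inl 1)) h
      simp [a₁, a₃] at h3
    · intro h
      have h3 := congrArg (fun z : {x // p x} => z.1.1 (.inl 0)) h
      simp [a₂, a₃] at h3
    · rintro ⟨⟨v, hv⟩, hp⟩
      rcases class_A hF hv hp with h | h | h
      · exact Or.inl (Subtype.ext (Subtype.ext h))
      · exact Or.inr (Or.inl (Subtype.ext (Subtype.ext h)))
      · exact Or.inr (Or.inr (Subtype.ext (Subtype.ext h)))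
  have hB : Fintype.card {x // ¬ p x} = 3 := by
    apply card_three (⟨b₁, hb₁⟩ : {x // ¬ p x}) ⟨b₂, hb₂⟩ ⟨b₃, hb₃⟩
    · intro h
      have h3 := congrArg (fun z : {x // ¬ p x} => z.1.1 (.inl 1)) h
      simp [b₁, b₂] at h3
    · intro h
      have h3 := congrArg (fun z : {x // ¬ p x} => z.1.1 (.inl 0)) h
      simp [b₁, b₃] at h3
    · intro h
      have h3 := congrArg (fun z : {x // ¬ p x} => z.1.1 (.inl 0)) h
      simp [b₂, b₃] at h3
    · rintro ⟨⟨v, hv⟩, hp⟩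
      rcases class_B hF hv hp with h | h | h
      · exact Or.inl (Subtype.ext (Subtype.ext h))
      · exact Or.inr (Or.inl (Subtype.ext (Subtype.ext h)))
      · exact Or.inr (Or.inr (Subtype.ext (Subtype.ext h)))
  -- the reflections
  have hfixr : ∀ a : XX F, (⟨refl (plusForm 2 F) a.1, refl_mem _ _⟩ : isoGroup (plusForm 2 F)) • a = a := by
    intro a
    apply Subtype.ext
    show refl (plusForm 2 F) a.1 a.1 = a.1
    rw [refl_self, neg_eq_self hF]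
    rw [a.2]
    exact one_ne_zero
  have hpres : ∀ (g : isoGroup (plusForm 2 F)) (a : XX F), g • a = a → ∀ x : XX F, p (g • x) ↔ p x := by
    intro g a hg
    rcases dich hF g with h | h
    · exact h
    · exfalso
      have := h a
      rw [hg] at this
      exact iff_not_self this
  have hmove : ∀ a x : XX F, x ≠ a → (p x ↔ p a) →
      (⟨refl (plusForm 2 F) a.1, refl_mem _ _⟩ : isoGroup (plusForm 2 F)) • x ≠ x := by
    intro a x hxa hb h
    have h3 := congrArg Subtype.val h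
    have h4 : refl (plusForm 2 F) a.1 x.1 = x.1 := h3
    rw [hreflX hF] at h4
    have h5 : polar (plusForm 2 F) x.1 a.1 = 1 := by
      rw [block_F hF x.2 a.2]
      exact ⟨fun h => hxa (Subtype.ext h), hb⟩
    rw [h5, one_smul] at h4
    have h6 : a.1 = 0 := by
      have : x.1 - a.1 - x.1 = 0 := by rw [h4, sub_self]
      have h7 : - a.1 = 0 := by
        rw [← this]
        abel
      exact neg_eq_zero.mp h7
    have h7 := a.2
    rw [h6, QuadraticMap.map_zero] at h7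
    exact h01 h7
  have hfixB : ∀ x : XX F, ¬ p x →
      (⟨refl (plusForm 2 F) a₁.1, refl_mem _ _⟩ : isoGroup (plusForm 2 F)) • x = x := by
    intro x hx
    apply Subtype.ext
    show refl (plusForm 2 F) a₁.1 x.1 = x.1
    apply refl_fix
    rcases F01 hF (polar (plusForm 2 F) x.1 a₁.1) with h | h
    · exact h
    · exfalso
      have h3 := ((block_F hF x.2 a₁.2).mp h).2
      exact hx (h3.mpr ha₁)
  have hs : ∀ x : XX F, p ((⟨swL, swL_mem⟩ : isoGroup (plusForm 2 F)) • x) ↔ ¬ p x := by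
    rcases dich hF ⟨swL, swL_mem⟩ with h | h
    · exfalso
      have h3 := (h a₁).mpr ha₁
      have h4 : (swL a₁.1) (.inr 0) = (swL a₁.1) (.inl 0) + (swL a₁.1) (.inl 1) := h3.1
      simp only [swL_apply, Equiv.sumCongr_apply, Sum.map_inl, Sum.map_inr, Equiv.swap_apply_left,
        Equiv.swap_apply_right] at h4
      simp [a₁] at h4
    · exact h
  exact blocks_main (p := p) hA hB (fun g => dich hF g) (fun g h => faithful hF g h)
    ⟨refl _ a₁.1, refl_mem _ _⟩ ⟨refl _ a₂.1, refl_mem _ _⟩ ⟨swL, swL_mem⟩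
    (hpres _ a₁ (hfixr a₁)) (hpres _ a₂ (hfixr a₂)) hs
    (Subtype.ext (refl_mul_self _ _)) (Subtype.ext (refl_mul_self _ _)) hfixB
    a₁ a₂ ha₁ ha₂ (hfixr a₁)
    (hmove a₂ a₁ (fun h => by
      have h3 := congrArg (fun z : XX F => z.1 (.inl 0)) h
      simp [a₁, a₂] at h3) (by
        constructor <;> intro _
        · exact ha₂
        · exact ha₁))
    (hmove a₁ a₂ (fun h => by
      have h3 := congrArg (fun z : XX F => z.1 (.inl 0)) h
      simp [a₁, a₂] at h3) (by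
        constructor <;> intro _
        · exact ha₁
        · exact ha₂))

/-- The exceptional group. -/
theorem plus_two_main (p : ℕ) [Fact p.Prime] [CharP F p] :
    ∃ χ : Cfsg.POmega F (Cfsg.quadFormPlus 2 F) → ℂ, Cfsg.IsIrrCharacter (Cfsg.POmega F (Cfsg.quadFormPlus 2 F)) χ ∧
      ∀ P : Sylow p (Cfsg.POmega F (Cfsg.quadFormPlus 2 F)), χ 1 = Nat.card P ∧
        ∀ x : Cfsg.POmega F (Cfsg.quadFormPlus 2 F), x ∈ P → x ≠ 1 → χ x = 0 := by
  classical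
  have hp2 : p = 2 := by
    have h1 : (p : F) = 0 := CharP.cast_eq_zero F p
    haveI : CharP F 2 := by
      apply CharTwo.of_one_ne_zero_of_two_eq_zero one_ne_zero
      have := one_add_one hF
      rw [← this]
      norm_num
    exact CharP.eq F ‹_› ‹_›
  subst hp2
  obtain ⟨ρ₀, hρ₀, hcard₀⟩ := structure_main hF
  let Q := plusForm 2 F
  haveI : Finite (Cfsg.Omega F ⇑Q) := inferInstance
  let j : Cfsg.Omega F ⇑Q →* commutator (isoGroup Q) :=
    ((toIso Q).toMonoidHom.comp (Cfsg.Omega F ⇑Q).subtype).codRestrict _ (fun g => by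
      have h1 : g.1 ∈ commutator (isometryGroup F ⇑Q) := g.2
      exact (mem_commutator_equiv (toIso Q) g.1).mp h1)
  have hjs : Function.Surjective j := by
    rintro ⟨y, hy⟩
    obtain ⟨z, rfl⟩ := (toIso Q).surjective y
    exact ⟨⟨z, (mem_commutator_equiv (toIso Q) z).mpr hy⟩, rfl⟩
  have hji : Function.Injective j := by
    intro a b hab
    apply Subtype.ext
    apply (toIso Q).injective
    exact congrArg Subtype.val hab
  have hcardΩ : Nat.card (Cfsg.Omega F ⇑Q) ∣ 18 := by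
    have : Nat.card (Cfsg.Omega F ⇑Q) = Nat.card (commutator (isoGroup Q)) := Nat.card_congr (Equiv.ofBijective j ⟨hji, hjs⟩)
    rw [this]
    exact hcard₀
  let ρ : Cfsg.Omega F ⇑Q →* Equiv.Perm (Fin 3) := ρ₀.comp j
  have hρ : Function.Surjective ρ := hρ₀.comp hjs
  have hcen : Subgroup.center (Cfsg.Omega F ⇑Q) ≤ ρ.ker := by
    intro z hz
    rw [MonoidHom.mem_ker]
    apply center_S3
    intro τ
    obtain ⟨t, rfl⟩ := hρ τ
    rw [← map_mul, ← map_mul, (Subgroup.mem_center_iff.mp hz t).symm]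
  let ρ' : Cfsg.Omega F ⇑Q ⧸ Subgroup.center (Cfsg.Omega F ⇑Q) →* Equiv.Perm (Fin 3) :=
    QuotientGroup.lift _ ρ hcen
  have hρ' : Function.Surjective ρ' := by
    intro τ
    obtain ⟨t, rfl⟩ := hρ τ
    exact ⟨(t : Cfsg.Omega F ⇑Q ⧸ Subgroup.center (Cfsg.Omega F ⇑Q)), rfl⟩
  exact s3_char ρ' hρ' (dvd_trans (Subgroup.card_quotient_dvd_card _) hcardΩ)

end

end Cfsg.Agent.Lib.Polar.PlusTwo
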